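import Cfsg.Prelude.Def_KGroupFacts
import Cfsg.Prelude.Def_Classical
import Cfsg.Agent.Lib.Helper40.SympOrder
import Cfsg.Agent.Lib.Helper40.SympCenter
import Cfsg.Agent.Lib.Helper28.Sp6Mult.Low

/-!
# The Schur multiplier of `Sp₆(2)` is cyclic of order 2 (helper28)

`PS = ⟨u, v, t | relL0⟩` maps onto `Sp₆(2)` (`γ_surjective`), its cover group `E0` has order at
most `2 · |Sp₆(2)|` (`card_E0`) and the projection `E0 → PS` has a non-trivial central kernel
(`Low.exists_proj_ne`).  Hence `PS ≅ Sp₆(2)`, the kernel has order 2, `E0` is a stem extension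
with kernel of order 2, and every finite stem extension is an image of `E0` (`Cov.stem_surj`),
so its kernel has order at most 2.  A field with two elements is isomorphic to `ZMod 2`, and the
centre of `Sp₆(2)` is trivial, which transports the statement to `PSp 3 F`.
-/

set_option autoImplicit false

namespace Cfsg.Agent.Lib.Helper28.Sp6Mult

open Cfsg.Agent.Lib.Helper28.Cov Cfsg.Agent.Lib.Helper28.CovL
open Cfsg.Agent.Lib.Helper28.G2Mult (L2.T)

universe u

section generic

theorem card_ker_mul {Γ G : Type*} [Group Γ] [Group G] (σ : Γ →* G)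
    (hs : Function.Surjective σ) : Nat.card σ.ker * Nat.card G = Nat.card Γ := by
  have h := Subgroup.card_mul_index σ.ker
  rw [Subgroup.index_ker] at h
  have e : Nat.card σ.range = Nat.card G := by
    have : σ.range = ⊤ := MonoidHom.range_eq_top.mpr hs
    rw [this]
    exact Nat.card_congr (Subgroup.topEquiv (G := G)).toEquiv
  rw [e] at h
  exact h

theorem nonempty_equiv_zmod2 {K : Type*} [Group K] (h : Nat.card K = 2) :
    Nonempty (K ≃* Multiplicative (ZMod 2)) := by
  have : Fact (Nat.Prime 2) := ⟨Nat.prime_two⟩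
  have : IsCyclic K := isCyclic_of_prime_card h
  refine ⟨mulEquivOfCyclicCardEq ?_⟩
  rw [h, Nat.card_eq_fintype_card, Fintype.card_multiplicative, ZMod.card]

theorem exists_surj_zmod2 {K : Type*} [Group K] [Finite K] (h : Nat.card K ≤ 2) :
    ∃ f : Multiplicative (ZMod 2) →* K, Function.Surjective f := by
  have hpos : 0 < Nat.card K := Nat.card_pos
  have h12 : Nat.card K = 1 ∨ Nat.card K = 2 := by omega
  rcases h12 with h1 | h2
  · refine ⟨1, ?_⟩
    intro x
    have : Subsingleton K := (Nat.card_eq_one_iff_unique.mp h1).1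
    exact ⟨1, Subsingleton.elim _ _⟩
  · obtain ⟨e⟩ := nonempty_equiv_zmod2 h2
    exact ⟨e.symm.toMonoidHom, e.symm.surjective⟩

theorem cover_perfect {β : Type*} (S : Set (FreeGroup β)) (w : β → FreeGroup β)
    (hw : ∀ y, w y ∈ commutator (FreeGroup β)) :
    commutator (PresentedGroup (coverRels S w)) = ⊤ := by
  rw [eq_top_iff, ← PresentedGroup.closure_range_of, Subgroup.closure_le]
  rintro _ ⟨y, rfl⟩
  have h1 : PresentedGroup.mk (coverRels S w) ((FreeGroup.of y)⁻¹ * w y) = 1 :=
    PresentedGroup.one_of_mem (mem_coverRels_right S w y)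
  rw [map_mul, map_inv, inv_mul_eq_one] at h1
  have h2 : PresentedGroup.mk (coverRels S w) (w y) ∈
      commutator (PresentedGroup (coverRels S w)) := by
    have hle : (commutator (FreeGroup β)).map (PresentedGroup.mk (coverRels S w)) ≤
        commutator (PresentedGroup (coverRels S w)) := by
      rw [commutator_def, commutator_def, Subgroup.map_commutator]
      exact Subgroup.commutator_mono le_top le_top
    exact hle ⟨_, hw y, rfl⟩
  rw [← h1] at h2
  exact h2

end generic

section transport

variable {l : Type*} [DecidableEq l] [Fintype l] {R S : Type*} [CommRing R] [CommRing S]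

/-- the symplectic group is functorial in the ring -/
def spMapR (f : R →+* S) : Matrix.symplecticGroup l R →* Matrix.symplecticGroup l S where
  toFun A := ⟨f.mapMatrix A.1, by
    rw [SymplecticGroup.mem_iff]
    have h := SymplecticGroup.mem_iff.1 A.2
    have h2 := congrArg f.mapMatrix h
    rw [map_mul, map_mul] at h2
    simpa [RingHom.mapMatrix_apply, Matrix.transpose_map] using h2⟩
  map_one' := Subtype.ext (by simp)
  map_mul' A B := Subtype.ext (by simp)

theorem spMapR_coe (f : R →+* S) (A : Matrix.symplecticGroup l R) :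
    ((spMapR f A : Matrix.symplecticGroup l S) : Matrix (l ⊕ l) (l ⊕ l) S) = f.mapMatrix A.1 :=
  rfl

/-- the symplectic groups of isomorphic rings are isomorphic -/
def spCongrR (e : R ≃+* S) : Matrix.symplecticGroup l R ≃* Matrix.symplecticGroup l S :=
  MonoidHom.toMulEquiv (spMapR e.toRingHom) (spMapR e.symm.toRingHom)
    (by
      ext A i j
      simp [spMapR_coe])
    (by
      ext A i j
      simp [spMapR_coe])

end transport

theorem card_Sp6 : Nat.card Sp6 = 1451520 := by
  have h := Cfsg.Agent.Lib.Helper40.card_symplecticGroup (F := ZMod 2) 3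
  rw [h, ZMod.card]
  norm_num [Finset.prod_range_succ]

/-- The Schur multiplier of `Sp₆(2)` is cyclic of order 2. -/
theorem sp6_multiplier (hC0 : CertC L0.T) (hC2 : CertC L2.T)
    {F : Type u} [Field F] [Fintype F] (hF : Fintype.card F = 2) :
    Cfsg.HasCyclicSchurMultiplier (Cfsg.PSp 3 F) 2 := by
  obtain ⟨f0, c0⟩ := card_E0 hC0 hC2
  have : Finite E0 := f0
  obtain ⟨π, hπs, hπc, z, hz, hz1⟩ := Low.exists_proj_ne
  have hPSfin : Finite PS := Finite.of_surjective π hπs
  have hSp := card_Sp6
  have hge : 1451520 ≤ Nat.card PS := by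
    rw [← hSp]
    exact Nat.card_le_card_of_surjective γ γ_surjective
  have hE0' : Nat.card π.ker * Nat.card PS = Nat.card E0 := card_ker_mul π hπs
  have hne : π.ker ≠ ⊥ := by
    intro hb
    rw [hb, Subgroup.mem_bot] at hz
    exact hz1 hz
  have hgt : 1 < Nat.card π.ker := (Subgroup.one_lt_card_iff_ne_bot π.ker).mpr hne
  have hkπ : Nat.card π.ker = 2 := by
    by_contra hcon
    have h3 : 3 ≤ Nat.card π.ker := by omega
    have : 3 * 1451520 ≤ Nat.card π.ker * Nat.card PS := Nat.mul_le_mul h3 hge
    omega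
  have hPS : Nat.card PS = 1451520 := by
    rw [hkπ] at hE0'
    omega
  have hE0 : Nat.card π.ker * 1451520 = Nat.card E0 := by
    rw [← hPS]
    exact hE0'
  have hb : Function.Bijective γ :=
    γ_surjective.bijective_of_nat_card_le (by rw [hPS, hSp])
  let e₁ : PS ≃* Sp6 := MulEquiv.ofBijective γ hb
  have hK : Fintype.card (ZMod 2) = Fintype.card F := by rw [hF, ZMod.card]
  let ψ : ZMod 2 ≃+* F := FiniteField.ringEquivOfCardEq hK
  let e₂ : Sp6 ≃* Matrix.symplecticGroup (Fin 3) F := spCongrR ψ
  have hcen : Subgroup.center (Matrix.symplecticGroup (Fin 3) F) = ⊥ := by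
    have h := Cfsg.Agent.Lib.Helper40.card_center_symplectic (F := F) 3 (by norm_num)
    rw [hF] at h
    exact Subgroup.eq_bot_of_card_eq _ h
  have hq : Function.Bijective
      (QuotientGroup.mk' (Subgroup.center (Matrix.symplecticGroup (Fin 3) F))) := by
    refine ⟨?_, QuotientGroup.mk'_surjective _⟩
    rw [← MonoidHom.ker_eq_bot_iff, QuotientGroup.ker_mk', hcen]
  let e₃ : Matrix.symplecticGroup (Fin 3) F ≃* Cfsg.PSp 3 F := MulEquiv.ofBijective _ hq
  let e : PS ≃* Cfsg.PSp 3 F := e₁.trans (e₂.trans e₃)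
  have hG : Nat.card (Cfsg.PSp 3 F) = 1451520 := by
    rw [← Nat.card_congr e.toEquiv]
    exact hPS
  let σ : ULift.{u} E0 →* Cfsg.PSp 3 F :=
    (e.toMonoidHom.comp π).comp (MulEquiv.ulift (α := E0)).toMonoidHom
  have hσ : ∀ x : ULift.{u} E0, σ x = e (π x.down) := fun x => rfl
  have hσs : Function.Surjective σ := by
    intro g
    obtain ⟨y, hy⟩ := hπs (e.symm g)
    refine ⟨ULift.up y, ?_⟩
    rw [hσ, hy, e.apply_symm_apply]
  have hperf : commutator (ULift.{u} E0) = ⊤ := by
    have h0 := cover_perfect RS (cw nm3 (fun y : Fin 3 => y.val) fac0) hw0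
    let f : E0 →* ULift.{u} E0 := (MulEquiv.ulift (α := E0)).symm.toMonoidHom
    have hf : Function.Surjective f := (MulEquiv.ulift (α := E0)).symm.surjective
    have h1 := Subgroup.map_commutator (⊤ : Subgroup E0) ⊤ f
    rw [Subgroup.map_top_of_surjective f hf, ← commutator_def, ← commutator_def, h0,
      Subgroup.map_top_of_surjective f hf] at h1
    exact h1.symm
  refine ⟨⟨ULift.{u} E0, inferInstance, inferInstance, σ, ⟨hσs, ?_, ?_⟩, ?_⟩, ?_⟩
  · intro x hx
    rw [MonoidHom.mem_ker, hσ] at hx
    have h1 : π x.down = 1 := by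
      apply e.injective
      rw [map_one]
      exact hx
    have h2 := hπc (MonoidHom.mem_ker.mpr h1)
    rw [Subgroup.mem_center_iff] at h2 ⊢
    intro g
    apply ULift.ext
    exact h2 g.down
  · rw [hperf]
    exact le_top
  · apply nonempty_equiv_zmod2
    have h1 := card_ker_mul σ hσs
    rw [hG] at h1
    have h2 : Nat.card (ULift.{u} E0) = Nat.card E0 := Nat.card_congr Equiv.ulift
    rw [h2, ← hE0, hkπ] at h1
    omega
  · intro Γ _ _ τ hτ
    let τ' : Γ →* PS := e.symm.toMonoidHom.comp τ
    have hk : τ'.ker = τ.ker := by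
      ext x
      rw [MonoidHom.mem_ker, MonoidHom.mem_ker]
      show e.symm (τ x) = 1 ↔ τ x = 1
      constructor
      · intro h
        apply e.symm.injective
        rw [map_one]
        exact h
      · intro h
        rw [h, map_one]
    have hτ' : Cfsg.IsStemExtension τ' := by
      obtain ⟨hs, hc, hm⟩ := hτ
      refine ⟨e.symm.surjective.comp hs, ?_, ?_⟩
      · rw [hk]
        exact hc
      · rw [hk]
        exact hm
    obtain ⟨ψ', hψ'⟩ := stem_surj RS (cw nm3 (fun y : Fin 3 => y.val) fac0) hw0 hw0' τ' hτ'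
    have h1 : Nat.card Γ ≤ Nat.card E0 := Nat.card_le_card_of_surjective _ hψ'
    have h2 := card_ker_mul τ hτ.1
    rw [hG] at h2
    have hle : Nat.card τ.ker ≤ 2 := by
      by_contra hcon
      rw [not_le] at hcon
      have : 3 * 1451520 ≤ Nat.card τ.ker * 1451520 := Nat.mul_le_mul_right _ hcon
      omega
    exact exists_surj_zmod2 hle

end Cfsg.Agent.Lib.Helper28.Sp6Mult
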