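import Mathlib
import Cfsg.Prelude.Def_ClassicalGeometry
import Cfsg.Agent.Lib.Helper8.SpGen
import Cfsg.Agent.Lib.Helper28.CoverM
import Cfsg.Agent.Lib.Helper28.Sp6Mult.Words

/-!
# `Sp₆(2)` on its 64 vectors: three generators satisfying the relators `relL0` (helper28)

Vectors of `𝔽₂⁶` are coded by numbers below 64; the eight transvections `sT j` act on the codes by
the packed tables `tabT j` (checked against the matrices by kernel evaluation).  The elements
`gS 0 = u`, `gS 1 = v` (products of transvections, generating a copy of `U₃(3)`) and the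
transvection `gS 2 = t` satisfy the relators `relL0`, and every transvection is conjugate to `t`
under the group they generate (paths `pathL`), so they generate `Sp₆(2)`.
-/

set_option autoImplicit false
set_option maxRecDepth 1000000

namespace Cfsg.Agent.Lib.Helper28.Sp6Mult

open Cfsg.Agent.Lib.Helper56.TC (Tabs ew ew_cons ew_nil ew_append ew_congr)
open Cfsg.Agent.Lib.Helper28.Cov Cfsg.Agent.Lib.Helper28.CovL
open Cfsg.Agent.Lib.Helper8
open Cfsg.Agent.Lib.Helper28.Sp6Mult.Words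

/-- the vectors -/
abbrev V6 : Type := Fin 3 ⊕ Fin 3 → ZMod 2

/-- the symplectic group `Sp₆(2)` -/
abbrev Sp6 : Type := Matrix.symplecticGroup (Fin 3) (ZMod 2)

/-- the position of a coordinate -/
def cIdx : Fin 3 ⊕ Fin 3 → ℕ
  | Sum.inl i => i.val
  | Sum.inr i => 3 + i.val

/-- the vector with code `c` -/
def vN (c : ℕ) : V6 := fun i => ((c / 2 ^ cIdx i % 2 : ℕ) : ZMod 2)

/-- the code of a vector -/
def vC (x : V6) : ℕ :=
  (x (Sum.inl 0)).val + 2 * (x (Sum.inl 1)).val + 4 * (x (Sum.inl 2)).val +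
    8 * (x (Sum.inr 0)).val + 16 * (x (Sum.inr 1)).val + 32 * (x (Sum.inr 2)).val

theorem vN_vC : ∀ x : V6, vN (vC x) = x := by decide +kernel

theorem vC_vN : ∀ c < 64, vC (vN c) = c := by decide +kernel

theorem vN_zero : vN 0 = 0 := by decide +kernel

theorem vC_ne_zero {x : V6} (hx : x ≠ 0) : vC x ≠ 0 := by
  intro h
  apply hx
  rw [← vN_vC x, h, vN_zero]

theorem vC_lt : ∀ x : V6, vC x < 64 := by decide +kernel

/-- the codes of the eight transvection vectors -/
def cV (j : ℕ) : ℕ :=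
  match j with
  | 0 => 1
  | 1 => 8
  | 2 => 3
  | 3 => 16
  | 4 => 20
  | 5 => 32
  | 6 => 4
  | _ => 39

/-- the packed tables of the eight transvections -/
def tabT (j : ℕ) : ℕ :=
  match j with
  | 0 => 38785894046477798887664610806640517762249821326098729291568544583820054891023599819692597542733760321897641188008000
  | 1 => 34465625235200390672366756850333554728722683461525878507435725908624942346319946967220838411836256532677078075318848
  | 2 => 39392078757191551357345011763556444563022057075595377561052356329673799174351197194041506793538362694639690168672320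
  | 3 => 29387662525078596514976629659442152834016007019297575693798765719127484981292813291920305174457705877478788127596608
  | 4 => 39389025651724764402490110110177086248681965661612202184199834807875116435618789694867819485269776399091745345593408
  | 5 => 19378362517012745801611433659422514643272438415660073239608698179986034162167971669931411234001203469344093577683008
  | 6 => 36890364376283012325242047491011734824284322343915638578013120783389505850632933583855000600913097749568124009324608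
  | _ => 39392077602742900836148179606842166669051768557278420187123682029786002483041513440506543540069997271372554444742720

/-- the transvection `j` on codes -/
def τ (j c : ℕ) : ℕ := Nat.land (Nat.shiftRight (tabT j) (6 * c)) 63

/-- a word of transvections on codes (the last letter is applied first) -/
def tapp (l : List ℕ) (c : ℕ) : ℕ := l.foldr (fun a ih => τ a ih) c

theorem tapp_cons (a : ℕ) (l : List ℕ) (c : ℕ) : tapp (a :: l) c = τ a (tapp l c) := rfl

/-- the eight transvections -/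
noncomputable def sT (j : ℕ) : Sp6 := spT (vN (cV j)) 1

theorem link_0 : ∀ x : V6, vC (x + (1 * Cfsg.sympForm 3 (ZMod 2) x (vN 1)) • vN 1) = τ 0 (vC x) := by
  decide +kernel

theorem link_1 : ∀ x : V6, vC (x + (1 * Cfsg.sympForm 3 (ZMod 2) x (vN 8)) • vN 8) = τ 1 (vC x) := by
  decide +kernel

theorem link_2 : ∀ x : V6, vC (x + (1 * Cfsg.sympForm 3 (ZMod 2) x (vN 3)) • vN 3) = τ 2 (vC x) := by
  decide +kernel

theorem link_3 : ∀ x : V6, vC (x + (1 * Cfsg.sympForm 3 (ZMod 2) x (vN 16)) • vN 16) = τ 3 (vC x) := by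
  decide +kernel

theorem link_4 : ∀ x : V6, vC (x + (1 * Cfsg.sympForm 3 (ZMod 2) x (vN 20)) • vN 20) = τ 4 (vC x) := by
  decide +kernel

theorem link_5 : ∀ x : V6, vC (x + (1 * Cfsg.sympForm 3 (ZMod 2) x (vN 32)) • vN 32) = τ 5 (vC x) := by
  decide +kernel

theorem link_6 : ∀ x : V6, vC (x + (1 * Cfsg.sympForm 3 (ZMod 2) x (vN 4)) • vN 4) = τ 6 (vC x) := by
  decide +kernel

theorem link_7 : ∀ x : V6, vC (x + (1 * Cfsg.sympForm 3 (ZMod 2) x (vN 39)) • vN 39) = τ 7 (vC x) := by
  decide +kernel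

theorem link (j : ℕ) (hj : j < 8) (x : V6) : vC (spAct (sT j) x) = τ j (vC x) := by
  unfold sT
  rw [spAct_spT]
  interval_cases j
  · exact link_0 x
  · exact link_1 x
  · exact link_2 x
  · exact link_3 x
  · exact link_4 x
  · exact link_5 x
  · exact link_6 x
  · exact link_7 x

theorem vC_ew (w : List ℕ) (hw : ∀ a ∈ w, a < 8) (x : V6) :
    vC (spAct (ew sT w) x) = tapp w (vC x) := by
  induction w with
  | nil =>
    have e : ew sT [] = 1 := rfl
    rw [e, spAct_one]
    rfl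
  | cons a t ih =>
    rw [ew_cons, spAct_mul, link a (hw a List.mem_cons_self),
      ih (fun b hb => hw b (List.mem_cons_of_mem _ hb)), tapp_cons]

theorem ew_sT_eq (w : List ℕ) (hw : ∀ a ∈ w, a < 8) (x : V6) :
    spAct (ew sT w) x = vN (tapp w (vC x)) := by
  rw [← vC_ew w hw x, vN_vC]

theorem ew_sT_one (w : List ℕ) (hw : ∀ a ∈ w, a < 8) (h : ∀ c < 64, tapp w c = c) :
    ew sT w = 1 := by
  apply sp_ext
  intro x
  rw [ew_sT_eq w hw x, h _ (vC_lt x), vN_vC, spAct_one]

theorem two_eq_zero : (1 + 1 : ZMod 2) = 0 := by decide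

theorem sT_sq (j : ℕ) : sT j * sT j = 1 := by
  unfold sT
  rw [spT_mul, two_eq_zero, spT_zero_right]

theorem sT_inv (j : ℕ) : (sT j)⁻¹ = sT j := inv_eq_of_mul_eq_one_left (sT_sq j)

theorem ew_sT_reverse (w : List ℕ) : ew sT w.reverse = (ew sT w)⁻¹ := by
  induction w with
  | nil => simp [ew]
  | cons a t ih =>
    rw [List.reverse_cons, ew_append, ih, ew_cons, ew_cons, ew_nil, mul_one, mul_inv_rev, sT_inv]

/-- `u`, `v`, `t` as words in the transvections -/
def hW (i : ℕ) : List ℕ :=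
  match i % 3 with
  | 0 => [6, 1, 2, 4, 3, 2, 1]
  | 1 => [6, 3, 2, 4, 5, 4, 2, 1, 0]
  | _ => [7]

theorem hW_mod (i : ℕ) : hW (i % 3) = hW i := by
  unfold hW
  rw [Nat.mod_mod]

theorem hW_lt : ∀ i < 3, ∀ a ∈ hW i, a < 8 := by decide

/-- the generators `u`, `v`, `t` in `Sp₆(2)` (index taken mod 3) -/
noncomputable def gS (i : ℕ) : Sp6 := ew sT (hW i)

theorem gS_mod (i : ℕ) : gS (i % 3) = gS i := by
  unfold gS
  rw [hW_mod]

/-- the word of a letter (`2 * i`: generator `i`, `2 * i + 1`: its inverse) -/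
def sub1 (a : ℕ) : List ℕ := if a % 2 = 0 then hW (a / 2) else (hW (a / 2)).reverse

/-- substitute `u, v, t` -/
def gWord (l : List ℕ) : List ℕ := l.flatMap sub1

theorem ew_sub1 (a : ℕ) : ew sT (sub1 a) = gl gS a := by
  unfold sub1 gl gS
  split_ifs
  · rfl
  · exact ew_sT_reverse _

theorem ew_gWord (l : List ℕ) : ew sT (gWord l) = ew (gl gS) l := by
  unfold gWord
  rw [ew_flatMap]
  apply ew_congr
  intro a _
  exact ew_sub1 a

theorem sub1_lt (a : ℕ) : ∀ b ∈ sub1 a, b < 8 := by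
  have h : ∀ i, ∀ b ∈ hW i, b < 8 := by
    intro i b hb
    rw [← hW_mod] at hb
    exact hW_lt (i % 3) (Nat.mod_lt _ (by norm_num)) b hb
  intro b hb
  unfold sub1 at hb
  split_ifs at hb
  · exact h _ b hb
  · exact h _ b (List.mem_reverse.mp hb)

theorem gWord_lt (l : List ℕ) : ∀ b ∈ gWord l, b < 8 := by
  intro b hb
  unfold gWord at hb
  rw [List.mem_flatMap] at hb
  obtain ⟨a, _, hb⟩ := hb
  exact sub1_lt a b hb

theorem relS_tab : ∀ l ∈ relL0, ∀ c < 64, tapp (gWord l) c = c := by decide +kernel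

theorem gS_rel : ∀ l ∈ relL0, ew (gl gS) l = 1 := by
  intro l hl
  rw [← ew_gWord]
  exact ew_sT_one _ (gWord_lt l) (relS_tab l hl)

/-- for each non-zero code a word in `u, v, t` moving the vector of `t` to it -/
def pathL : List (List ℕ) :=
  [[],
   [2, 4, 3, 3, 3],
   [2, 2, 0],
   [2, 0, 3, 3, 0, 2],
   [3],
   [0, 2, 4, 3, 3, 3],
   [0, 2, 2, 0],
   [3, 0],
   [4, 3, 3, 3],
   [4, 2, 2],
   [2, 0, 3, 3],
   [3, 0, 3, 3, 0, 2],
   [0, 4, 3, 3, 3],
   [3, 0, 4, 3, 3, 3],
   [2, 4, 0, 4, 3],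
   [3, 3, 0, 4, 3],
   [2, 2, 2],
   [3, 0, 4, 3, 3],
   [2, 0],
   [3, 3, 0, 2, 2, 0],
   [0, 2, 2, 2],
   [2, 4, 2],
   [3, 0, 3, 3],
   [3, 3, 3, 0, 4, 3],
   [2, 0, 4, 3, 3],
   [0, 4, 3, 3],
   [0, 3, 3, 0, 2],
   [2, 2, 0, 3, 3, 0, 2],
   [4, 2],
   [4, 3, 3],
   [3, 3, 0, 2],
   [4, 0, 4, 3],
   [0, 2],
   [0, 3, 4, 3],
   [0, 3, 0, 4, 3],
   [4, 3],
   [3, 0, 2],
   [0, 3, 3],
   [0, 2, 4, 2, 0],
   [],
   [3, 0, 2, 2, 0],
   [3, 0, 2, 2, 2, 2],
   [0, 2, 2, 2, 0],
   [2, 4, 2, 2],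
   [0, 2, 2, 2, 2],
   [4, 2, 0, 3, 3],
   [2, 2],
   [3, 3, 3],
   [0, 3, 3, 3],
   [2, 2, 2, 0],
   [2, 2, 0, 4, 3, 3],
   [2, 2, 2, 2],
   [0, 2, 4, 2, 2],
   [4, 2, 0],
   [0, 4, 2, 0, 3, 3],
   [4, 2, 2, 2],
   [0, 4, 3],
   [2, 4, 2, 0],
   [3, 3],
   [2],
   [0],
   [3, 0, 4, 3],
   [3, 4, 3],
   [0, 3, 0, 2]]

theorem path_tab : ∀ c < 64, c ≠ 0 → tapp (gWord (pathL.getD c [])) 39 = c := by decide +kernel

theorem gS_two : gS 2 = spT (vN 39) 1 := by
  show ew sT [7] = _
  rw [ew_cons, ew_nil, mul_one]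
  rfl

/-- every transvection is conjugate to `t` by an element of the group generated by `u, v, t` -/
theorem spT_eq_conj (w : V6) (hw : w ≠ 0) :
    spT w (1 : ZMod 2) = ew (gl gS) (pathL.getD (vC w) []) * gS 2 *
      (ew (gl gS) (pathL.getD (vC w) []))⁻¹ := by
  rw [gS_two, conj_spT, ← ew_gWord, ew_sT_eq _ (gWord_lt _)]
  have e : vC (vN 39) = 39 := vC_vN 39 (by norm_num)
  rw [e, path_tab _ (vC_lt w) (vC_ne_zero hw), vN_vC]

end Cfsg.Agent.Lib.Helper28.Sp6Mult
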